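import Mathlib
import Cfsg.Agent.Lib.Helper37.FP.Tools

set_option autoImplicit false

/-!
# S3814 team project (coordinator helper46): sub-lemma (SL2) `conj_trick` and its corollary

* `conj_trick` : `x, w` commuting of prime order `p`, `x ∉ ⟨w⟩`, `g` centralizes `w` and
  `1 ≠ [g, x] ∈ ⟨w⟩`: every element of `⟨x, w⟩` outside `⟨w⟩` is `g^i x^s g^-i` with `x^s ≠ 1`.
* `conj_trick_fix` : if moreover `W ≠ 1` is a solvable `p'`-subgroup normalized by `x, w, g` on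
  which `w` is fixed-point-free, then `x` has a nontrivial fixed point on `W`.
-/

namespace Cfsg.Agent.Lib.Helper2.FP

universe u

variable {G : Type u} [Group G]

/-- (SL2) the conjugation trick. -/
theorem conj_trick [Finite G] (p : ℕ) (hp : p.Prime) (x w g : G) (hx : orderOf x = p)
    (hw : orderOf w = p) (hxw : x * w = w * x) (hxw' : x ∉ Subgroup.zpowers w)
    (hgw : g * w = w * g) (hk : g * x * g⁻¹ * x⁻¹ ∈ Subgroup.zpowers w)
    (hk1 : g * x * g⁻¹ * x⁻¹ ≠ 1) :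
    ∀ f ∈ Subgroup.closure ({x, w} : Set G), f ∉ Subgroup.zpowers w →
      ∃ (i s : ℕ), x ^ s ≠ 1 ∧ f = g ^ i * x ^ s * (g ^ i)⁻¹ := by
  have hxp : x ^ p = 1 := by rw [← hx]; exact pow_orderOf_eq_one x
  have hwp : w ^ p = 1 := by rw [← hw]; exact pow_orderOf_eq_one w
  obtain ⟨c, hc⟩ : ∃ c : ℕ, w ^ c = g * x * g⁻¹ * x⁻¹ := by
    have h1 := ((isOfFinOrder_of_finite w).mem_powers_iff_mem_zpowers).mpr hk
    exact (Submonoid.mem_powers_iff _ _).mp h1
  have hcp : ¬ p ∣ c := by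
    intro hd
    apply hk1
    rw [← hc]
    obtain ⟨d, rfl⟩ := hd
    rw [pow_mul, hwp, one_pow]
  have hcw : Commute x w := hxw
  have hgw' : Commute g w := hgw
  have hconj : ∀ i : ℕ, g ^ i * x * (g ^ i)⁻¹ = w ^ (c * i) * x := by
    intro i
    induction i with
    | zero => simp
    | succ i ih =>
      have e : g ^ (i + 1) * x * (g ^ (i + 1))⁻¹ = g * (g ^ i * x * (g ^ i)⁻¹) * g⁻¹ := by
        rw [pow_succ']; group
      rw [e, ih]
      have h0 : g * w ^ (c * i) = w ^ (c * i) * g := (hgw'.pow_right _).eq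
      have h1 : g * (w ^ (c * i) * x) * g⁻¹ = w ^ (c * i) * (g * x * g⁻¹) := by
        calc g * (w ^ (c * i) * x) * g⁻¹ = (g * w ^ (c * i)) * x * g⁻¹ := by group
          _ = (w ^ (c * i) * g) * x * g⁻¹ := by rw [h0]
          _ = w ^ (c * i) * (g * x * g⁻¹) := by group
      have h2 : g * x * g⁻¹ = w ^ c * x := by rw [hc]; group
      rw [h1, h2, ← mul_assoc, ← pow_add, Nat.mul_succ]
  have hconj2 : ∀ i s : ℕ, g ^ i * x ^ s * (g ^ i)⁻¹ = w ^ (c * i * s) * x ^ s := by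
    intro i s
    have h1 : g ^ i * x ^ s * (g ^ i)⁻¹ = (g ^ i * x * (g ^ i)⁻¹) ^ s := by
      rw [conj_pow]
    have h2 : Commute (w ^ (c * i)) x := (hcw.pow_right _).symm
    rw [h1, hconj, h2.mul_pow, ← pow_mul]
  have hinv : ∀ (y : G), y ^ p = 1 → ∀ a : ℕ, (y ^ a)⁻¹ = y ^ (a * (p - 1)) := by
    intro y hy a
    rw [inv_eq_iff_mul_eq_one, ← pow_add]
    have h1 : a + a * (p - 1) = p * a := by
      obtain ⟨q, rfl⟩ : ∃ q, p = q + 1 := ⟨p - 1, by have := hp.one_lt; omega⟩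
      simp only [Nat.add_sub_cancel]; ring
    rw [h1, pow_mul, hy, one_pow]
  have hform : ∀ f ∈ Subgroup.closure ({x, w} : Set G), ∃ a s : ℕ, f = w ^ a * x ^ s := by
    intro f hf
    induction hf using Subgroup.closure_induction with
    | mem y hy =>
      rcases hy with rfl | rfl
      · exact ⟨0, 1, by simp⟩
      · exact ⟨1, 0, by simp⟩
    | one => exact ⟨0, 0, by simp⟩
    | mul y z _ _ hy hz =>
      obtain ⟨a, s, rfl⟩ := hy
      obtain ⟨b, t, rfl⟩ := hz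
      refine ⟨a + b, s + t, ?_⟩
      have h0 : x ^ s * w ^ b = w ^ b * x ^ s := ((hcw.pow_left s).pow_right b).eq
      calc w ^ a * x ^ s * (w ^ b * x ^ t) = w ^ a * (x ^ s * w ^ b) * x ^ t := by group
        _ = w ^ a * (w ^ b * x ^ s) * x ^ t := by rw [h0]
        _ = w ^ (a + b) * x ^ (s + t) := by rw [pow_add, pow_add]; group
    | inv y _ hy =>
      obtain ⟨a, s, rfl⟩ := hy
      refine ⟨a * (p - 1), s * (p - 1), ?_⟩
      rw [mul_inv_rev, hinv w hwp, hinv x hxp]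
      exact ((hcw.pow_left _).pow_right _).eq
  intro f hf hfw
  obtain ⟨a, s, rfl⟩ := hform f hf
  have hxs : x ^ s ≠ 1 := by
    intro h
    apply hfw
    rw [h, mul_one]
    exact Subgroup.pow_mem _ (Subgroup.mem_zpowers w) a
  have hsp : ¬ p ∣ s := by
    intro hd
    apply hxs
    obtain ⟨d, rfl⟩ := hd
    rw [pow_mul, hxp, one_pow]
  have hcop : Nat.Coprime (c * s) p := by
    apply Nat.Coprime.symm
    rw [Nat.Prime.coprime_iff_not_dvd hp]
    intro hd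
    rcases (Nat.Prime.dvd_mul hp).mp hd with h | h
    · exact hcp h
    · exact hsp h
  obtain ⟨m, -, hm⟩ := Nat.exists_mul_mod_eq_of_coprime a hcop hp.ne_zero
  refine ⟨m, s, hxs, ?_⟩
  rw [hconj2]
  congr 1
  rw [pow_eq_pow_iff_modEq, hw]
  have e : c * m * s = c * s * m := by ring
  rw [e]
  exact hm.symm

/-- Corollary of (SL2): a nontrivial fixed point of `x` on `W`. -/
theorem conj_trick_fix [Finite G] (p : ℕ) (hp : p.Prime) (x w g : G) (hx : orderOf x = p)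
    (hw : orderOf w = p) (hxw : x * w = w * x) (hxw' : x ∉ Subgroup.zpowers w)
    (hgw : g * w = w * g) (hk : g * x * g⁻¹ * x⁻¹ ∈ Subgroup.zpowers w)
    (hk1 : g * x * g⁻¹ * x⁻¹ ≠ 1)
    (W : Subgroup G) (hW : W ≠ ⊥) (hpW : ¬ p ∣ Nat.card W) (hsolv : Group.IsSolvable W)
    (hxW : ∀ v ∈ W, x * v * x⁻¹ ∈ W) (hwW : ∀ v ∈ W, w * v * w⁻¹ ∈ W)
    (hgW : ∀ v ∈ W, g * v * g⁻¹ ∈ W)
    (hfpf : ∀ v ∈ W, w * v = v * w → v = 1) :
    ∃ v ∈ W, v ≠ 1 ∧ x * v = v * x := by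
  have hxp : x ^ p = 1 := by rw [← hx]; exact pow_orderOf_eq_one x
  have hwp : w ^ p = 1 := by rw [← hw]; exact pow_orderOf_eq_one w
  have hroot : ∀ (y : G), orderOf y = p → ∀ s : ℕ, y ^ s ≠ 1 → ∃ m : ℕ, y = (y ^ s) ^ m := by
    intro y hy s hys
    have hyp : y ^ p = 1 := by rw [← hy]; exact pow_orderOf_eq_one y
    have hsp : ¬ p ∣ s := by
      intro hd
      apply hys
      obtain ⟨d, rfl⟩ := hd
      rw [pow_mul, hyp, one_pow]
    have hcop : Nat.Coprime s p := by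
      apply Nat.Coprime.symm
      rw [Nat.Prime.coprime_iff_not_dvd hp]
      exact hsp
    obtain ⟨m, -, hm⟩ := Nat.exists_mul_mod_eq_of_coprime 1 hcop hp.ne_zero
    refine ⟨m, ?_⟩
    rw [← pow_mul]
    conv_lhs => rw [← pow_one y]
    rw [pow_eq_pow_iff_modEq, hy]
    exact hm.symm
  obtain ⟨e, he, he1, v, hvW, hv1, hev⟩ :=
    Cfsg.Agent.Lib.Helper37.FP.tool_T1 hp hw hx hxw.symm hxw' hW hpW hsolv hwW hxW
  have he' : e ∈ Subgroup.closure ({x, w} : Set G) := by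
    rw [Set.pair_comm]; exact he
  have hew : e ∉ Subgroup.zpowers w := by
    intro hmem
    obtain ⟨j, hj⟩ := (Submonoid.mem_powers_iff _ _).mp
      (((isOfFinOrder_of_finite w).mem_powers_iff_mem_zpowers).mpr hmem)
    have hwj : w ^ j ≠ 1 := by rw [hj]; exact he1
    obtain ⟨m, hm⟩ := hroot w hw j hwj
    apply hv1
    apply hfpf v hvW
    rw [hm, hj]
    exact ((show Commute e v from hev).pow_left m).eq
  obtain ⟨i, s, hxs, hes⟩ := conj_trick p hp x w g hx hw hxw hxw' hgw hk hk1 e he' hew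
  have hgN : g ∈ Subgroup.normalizer (W : Set G) :=
    Cfsg.Agent.Lib.Helper37.FP.mem_normalizer_of_conj_mem hgW
  have hgiN : (g ^ i)⁻¹ ∈ Subgroup.normalizer (W : Set G) := inv_mem (pow_mem hgN i)
  refine ⟨(g ^ i)⁻¹ * v * g ^ i, ?_, ?_, ?_⟩
  · have h1 := (Subgroup.mem_normalizer_iff.mp hgiN v).mp hvW
    simpa using h1
  · intro h
    apply hv1
    have h1 : v = g ^ i * ((g ^ i)⁻¹ * v * g ^ i) * (g ^ i)⁻¹ := by group
    rw [h1, h]; group
  · have h1 : x ^ s * ((g ^ i)⁻¹ * v * g ^ i) = ((g ^ i)⁻¹ * v * g ^ i) * x ^ s := by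
      rw [hes] at hev
      calc x ^ s * ((g ^ i)⁻¹ * v * g ^ i)
          = (g ^ i)⁻¹ * (g ^ i * x ^ s * (g ^ i)⁻¹ * v) * g ^ i := by group
        _ = (g ^ i)⁻¹ * (v * (g ^ i * x ^ s * (g ^ i)⁻¹)) * g ^ i := by rw [hev]
        _ = ((g ^ i)⁻¹ * v * g ^ i) * x ^ s := by group
    obtain ⟨m, hm⟩ := hroot x hx s hxs
    have h2 : (x ^ s) ^ m * ((g ^ i)⁻¹ * v * g ^ i) = ((g ^ i)⁻¹ * v * g ^ i) * (x ^ s) ^ m :=
      ((show Commute (x ^ s) ((g ^ i)⁻¹ * v * g ^ i) from h1).pow_left m).eq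
    rw [← hm] at h2
    exact h2

end Cfsg.Agent.Lib.Helper2.FP
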